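import Mathlib
import Cfsg.Agent.Lib.Helper6.D4Iso
import Cfsg.Agent.S1054

set_option autoImplicit false

/-!
# The explicit isomorphism `D₄(F) ≃* PΩ₈⁺(F)`, sending `x_r(t)` to the class of `R_r(t)`
-/

namespace Cfsg.Agent.Lib.Helper6.FA
open Matrix Cfsg.Lie Cfsg.Agent.Lib.Helper6.D4

variable {F : Type*} [Field F]

/-- explicit version of `quotient_center_equiv` -/
theorem quotient_center_equiv' {A B : Type*} [Group A] [Group B] (π : A →* B)
    (hπ : Function.Surjective π) (N : Subgroup A) [N.Normal]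
    (hN : ∀ a, a ∈ N ↔ ∀ a', π (a * a') = π (a' * a)) :
    ∃ e : A ⧸ N ≃* B ⧸ Subgroup.center B, ∀ a : A, e (QuotientGroup.mk a) = QuotientGroup.mk (π a) := by
  let φ : A →* B ⧸ Subgroup.center B := (QuotientGroup.mk' (Subgroup.center B)).comp π
  have hφ : Function.Surjective φ := (QuotientGroup.mk'_surjective _).comp hπ
  have hk : φ.ker = N := by
    ext a
    rw [MonoidHom.mem_ker, hN]
    show (QuotientGroup.mk (π a) : B ⧸ Subgroup.center B) = 1 ↔ _
    rw [QuotientGroup.eq_one_iff, Subgroup.mem_center_iff]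
    constructor
    · intro h a'
      rw [map_mul, map_mul, h]
    · intro h b
      obtain ⟨a', rfl⟩ := hπ b
      rw [← map_mul, ← map_mul, h]
  exact ⟨((QuotientGroup.quotientMulEquivOfEq hk).symm.trans
    (QuotientGroup.quotientKerEquivOfSurjective φ hφ)), fun a => rfl⟩

theorem iso_explicit' (G : Subgroup (GL Idx F)) (hG : (Gam F).map (MonoidHom.fst _ _) = G)
    [IsSimpleGroup ↥G] (hnc : ¬ IsMulCommutative ↥G) :
    ∃ e : ↥G ≃* Cfsg.POmega F (Cfsg.quadFormPlus 4 F), ∀ (r : Fin 24) (t : F) (h1 : xG r t ∈ G)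
      (h2 : Rr r t ∈ Cfsg.Omega F (Cfsg.quadFormPlus 4 F)),
      e ⟨xG r t, h1⟩ = QuotientGroup.mk ⟨Rr r t, h2⟩ := by
  classical
  let f1 : ↥(Gam F) →* ↥G := ((MonoidHom.fst _ _).comp (Gam F).subtype).codRestrict G (by
    intro a
    rw [← hG]
    exact ⟨a.1, a.2, rfl⟩)
  let f2 : ↥(Gam F) →* ↥(commutator (O8 F)) :=
    ((MonoidHom.snd _ _).comp (Gam F).subtype).codRestrict _ (by
    intro a
    rw [← map_snd_Gam]
    exact ⟨a.1, a.2, rfl⟩)
  have hf1 : Function.Surjective f1 := by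
    rintro ⟨y, hy⟩
    have hy' : y ∈ (Gam F).map (MonoidHom.fst _ _) := by rw [hG]; exact hy
    obtain ⟨x, hx, rfl⟩ := hy'
    exact ⟨⟨x, hx⟩, rfl⟩
  have hf2 : Function.Surjective f2 := by
    rintro ⟨y, hy⟩
    have hy' : y ∈ (Gam F).map (MonoidHom.snd _ _) := by rw [map_snd_Gam]; exact hy
    obtain ⟨x, hx, rfl⟩ := hy'
    exact ⟨⟨x, hx⟩, rfl⟩
  have hrel : ∀ a : ↥(Gam F), ∀ v, X ((a.1.1 : Matrix Idx Idx F) *ᵥ v) =
      mat a.1.2 * X v * (mat a.1.2)ᵀ := fun a => Gam_le_Rel a.2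
  -- `f2` is injective
  have hker2 : ∀ a : ↥(Gam F), f2 a = 1 → a = 1 := by
    have hn : (f2.ker.map f1).Normal := Subgroup.Normal.map inferInstance f1 hf1
    rcases hn.eq_bot_or_eq_top with hb | ht
    · intro a ha
      have h1 : f1 a ∈ f2.ker.map f1 := ⟨a, ha, rfl⟩
      rw [hb, Subgroup.mem_bot] at h1
      apply Subtype.ext
      apply Prod.ext
      · exact congrArg Subtype.val h1
      · exact congrArg Subtype.val ha
    · exfalso
      have hx : xG (0 : Fin 24) (1 : F) ∈ G := by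
        rw [← hG]
        exact ⟨(xG 0 1, Rr 0 1), Subgroup.subset_closure ⟨0, 1, rfl⟩, rfl⟩
      have h1 : (⟨xG 0 1, hx⟩ : ↥G) ∈ f2.ker.map f1 := by rw [ht]; trivial
      obtain ⟨a, ha, ha1⟩ := h1
      have e1 : a.1.1 = xG 0 1 := congrArg Subtype.val ha1
      have e2 : a.1.2 = 1 := congrArg Subtype.val (show f2 a = 1 from ha)
      have h2 := hrel a
      rw [e1, e2] at h2
      apply Rm_ne (F := F) (P 0) (Qt 0) (hPQ 0) (by decide)
      apply eq_one_or_neg_one
      intro v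
      rw [← X_xM]
      have h3 : X (xM F 0 1 *ᵥ v) = mat (1 : O8 F) * X v * (mat (1 : O8 F))ᵀ := h2 v
      rw [mat_one] at h3
      simpa using h3
  have hinj2 : Function.Injective f2 := (injective_iff_map_eq_one f2).2 hker2
  have hcen : Subgroup.center ↥G = ⊥ := by
    rcases (inferInstance : (Subgroup.center ↥G).Normal).eq_bot_or_eq_top with h | h
    · exact h
    · exfalso
      apply hnc
      constructor
      constructor
      intro a b
      have : b ∈ Subgroup.center ↥G := by rw [h]; trivial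
      exact (Subgroup.mem_center_iff.1 this a)
  obtain ⟨e1, he1⟩ := quotient_center_equiv' f2 hf2 f1.ker (fun a => ⟨fun ha a' => by
      have h1 : a.1.1 = 1 := congrArg Subtype.val (show f1 a = 1 from ha)
      have h2 := hrel a
      rw [h1] at h2
      have h3 : mat a.1.2 = 1 ∨ mat a.1.2 = -1 := by
        apply eq_one_or_neg_one
        intro v
        have := h2 v
        rw [← this]
        simp
      rw [map_mul, map_mul]
      apply Subtype.ext
      apply mat_injective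
      show mat a.1.2 * mat a'.1.2 = mat a'.1.2 * mat a.1.2
      rcases h3 with h3 | h3 <;> rw [h3] <;> simp, fun ha => by
      have h1 : ∀ a', a * a' = a' * a := fun a' => hinj2 (ha a')
      have h2 : f1 a ∈ Subgroup.center ↥G := by
        rw [Subgroup.mem_center_iff]
        intro y
        obtain ⟨a', rfl⟩ := hf1 y
        rw [← map_mul, ← map_mul, h1]
      rw [hcen, Subgroup.mem_bot] at h2
      exact h2⟩)
  refine ⟨(QuotientGroup.quotientKerEquivOfSurjective f1 hf1).symm.trans e1, ?_⟩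
  intro r t h1 h2
  have ha : ((xG r t, Rr r t) : GL Idx F × O8 F) ∈ Gam F := Subgroup.subset_closure ⟨r, t, rfl⟩
  have e2 : (⟨xG r t, h1⟩ : ↥G) = QuotientGroup.quotientKerEquivOfSurjective f1 hf1
      (QuotientGroup.mk ⟨_, ha⟩) := rfl
  rw [MulEquiv.trans_apply, e2, MulEquiv.symm_apply_apply, he1]
  rfl


theorem exists_iso (F : Type*) [Field F] :
    ∃ e : ↥(chevD4.group F) ≃* Cfsg.POmega F (Cfsg.quadFormPlus 4 F),
      ∀ (r : Fin 24) (t : F) (h1 : xG r t ∈ chevD4.group F)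
        (h2 : Rr r t ∈ Cfsg.Omega F (Cfsg.quadFormPlus 4 F)),
        e ⟨xG r t, h1⟩ = QuotientGroup.mk ⟨Rr r t, h2⟩ := by
  obtain ⟨hs, hnc⟩ := Cfsg.Agent.S1054.result (F := F) Cfsg.Lie.chevD4 (by simp)
  exact @iso_explicit' F _ (chevD4.group F) map_fst_Gam hs hnc

theorem xG_mem (r : Fin 24) (t : F) : xG r t ∈ chevD4.group F := by
  rw [group_eq]
  exact Subgroup.subset_closure ⟨r, t, rfl⟩

theorem Rr_mem (r : Fin 24) (t : F) : Rr r t ∈ Cfsg.Omega F (Cfsg.quadFormPlus 4 F) := by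
  show Rr r t ∈ commutator (O8 F)
  rw [← E_eq_commutator, E_eq_closure]
  exact Subgroup.subset_closure ⟨r, t, rfl⟩

/-- the group element `x_r(t)` of `D₄(F)` -/
def xE (r : Fin 24) (t : F) : ↥(chevD4.group F) := ⟨xG r t, xG_mem r t⟩

/-- the class of `R_r(t)` in `PΩ₈⁺(F)` -/
def rE (r : Fin 24) (t : F) : Cfsg.POmega F (Cfsg.quadFormPlus 4 F) :=
  QuotientGroup.mk ⟨Rr r t, Rr_mem r t⟩

theorem exists_iso' (F : Type*) [Field F] :
    ∃ e : ↥(chevD4.group F) ≃* Cfsg.POmega F (Cfsg.quadFormPlus 4 F),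
      ∀ (r : Fin 24) (t : F), e (xE r t) = rE r t := by
  obtain ⟨e, he⟩ := exists_iso F
  exact ⟨e, fun r t => he r t _ _⟩

end Cfsg.Agent.Lib.Helper6.FA
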