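import Mathlib
import Cfsg.Agent.Lib.Helper59.OMinus.Main
import Cfsg.Agent.Lib.Helper6.OA.InstDiag

set_option autoImplicit false
set_option linter.unusedSectionVars false
set_option linter.unusedVariables false

/-!
# Plus type: the standard field automorphism of prime order (centraliser, odd case)
-/

namespace Cfsg.Agent.Lib.Helper6.FA

open Matrix QuadraticMap Module
open Cfsg.Agent.Lib.Helper6.OA Cfsg.Agent.Lib.Helper49 Cfsg.Agent.Lib.Helper18
open Cfsg.Agent.Lib.Helper59.OMinus (fl cent_equiv hom_eq_of odd_card_of_two_ne split_of_setup)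

/-- `Inndiag` of the plus type group, for the bundled form -/
noncomputable abbrev IDp (m : ℕ) (F : Type*) [Field F] :
    Subgroup (MulAut (Cfsg.POmega F ⇑(plusQF m F))) :=
  inndiagOf ⇑(plusQF m F) (Cfsg.PreservesSingularClasses ⇑(plusQF m F))

theorem plus_sigma {F : Type*} [Field F] {m : ℕ} (σ : F ≃+* F) (v : Fin m ⊕ Fin m → F) :
    plusQF m F (fun i => σ (v i)) = σ (plusQF m F v) := by
  rw [plusQF_coe]
  simp [Cfsg.quadFormPlus]

theorem card_idx (m : ℕ) : Fintype.card (Fin m ⊕ Fin m) = 2 * m := by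
  simp; ring

theorem plus_compat {F : Type*} [Field F] {m : ℕ} (K : Type*) [Field K] [Algebra F K]
    (v : (Fin m ⊕ Fin m) → F) :
    plusQF m K (rat K v) = algebraMap F K (plusQF m F v) := by
  rw [plusQF_coe, plusQF_coe]
  simp [Cfsg.quadFormPlus, rat]

/-- the class character -/
noncomputable abbrev Psi (m : ℕ) (F : Type*) [Field F] :
    ↥(GO ⇑(plusQF m F)) →* Multiplicative (ZMod 2) :=
  clsHom (plusQF_nondegenerate m F) isLagr_stdLagr

section alg

variable {F : Type*} [Field F] [Fintype F] {F₀ : Type*} [Field F₀] [Fintype F₀] [Algebra F₀ F]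
variable {m : ℕ}

theorem two_ne_of_two_ne (h20 : (2 : F₀) ≠ 0) : (2 : F) ≠ 0 := by
  intro h
  apply h20
  apply (algebraMap F₀ F).injective
  rw [map_zero, map_ofNat, h]

theorem cls_compat (hm : 4 ≤ m) (g₀ : ↥(GO ⇑(plusQF m F₀))) :
    Psi m F (bcHom (plus_compat (m := m) F) g₀) = Psi m F₀ g₀ := by
  set hc := plus_compat (F := F₀) (m := m) F with hhc
  obtain ⟨v₀, hv₀⟩ := plus_hv (F := F₀) (m := m) (by omega)
  have hv : plusQF m F (rat F v₀) ≠ 0 := by
    rw [hc]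
    intro h
    exact hv₀ ((algebraMap F₀ F).injective (by rw [h, map_zero]))
  haveI : Nonempty (Fin m ⊕ Fin m) := ⟨Sum.inl ⟨0, by omega⟩⟩
  apply hom_eq_of ((Psi m F).comp (bcHom hc)) (Psi m F₀) _ (iO _ (refl (plusQF m F₀) v₀))
  · rw [MonoidHom.comp_apply, bcHom_iO_refl, clsHom_refl _ _ hv]
    exact ofAdd_one_ne_one
  · intro g hg
    rw [MonoidHom.comp_apply]
    by_cases h20 : (2 : F₀) = 0
    · rw [clsHom_eq_one_iff, preserves_iff_char_two h20 (plusQF_nondegenerate m F₀)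
        (Or.inr (by rw [card_idx]; omega)) ⟨v₀, hv₀⟩ isLagr_stdLagr] at hg
      obtain ⟨c, h, hh, rfl⟩ := hg
      rw [map_mul, map_mul, bcHom_sc, clsHom_sc, one_mul]
      exact Abelianization.commutator_subset_ker (((Psi m F).comp (bcHom hc)).comp (iO _)) hh
    · have h2F : (2 : F) ≠ 0 := two_ne_of_two_ne h20
      obtain ⟨ν₀, D₀, -, S₀⟩ := setup_plus (odd_card_of_two_ne h20) hm
      obtain ⟨ν, D, -, S⟩ := setup_plus (odd_card_of_two_ne h2F) hm
      rw [clsHom_eq_one_iff, preserves_plus_iff S₀] at hg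
      rw [clsHom_eq_one_iff, preserves_plus_iff S]
      exact (eps'_bc_eq_one_iff hc S₀.hv S.hv m g).2 hg

theorem cent_alg (hm : 4 ≤ m)
    (σ : F ≃+* F) (hfix : ∀ x, σ x = x ↔ x ∈ Set.range (algebraMap F₀ F))
    (hσQ : ∀ v : Fin m ⊕ Fin m → F, plusQF m F (fun i => σ (v i)) = σ (plusQF m F v))
    {r : ℕ} (hr : 0 < r) (hσr : orderOf σ = r) :
    Nonempty (↥(IDp m F ⊓ Subgroup.centralizer {fl ⇑(plusQF m F) σ hσQ}) ≃* ↥(IDp m F₀)) := by
  have hd : 7 ≤ Fintype.card (Fin m ⊕ Fin m) := by rw [card_idx]; omega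
  rw [IDp, IDp, inndiagOf_plus_eq_ker, inndiagOf_plus_eq_ker]
  exact cent_equiv (plus_compat (m := m) F) σ hσQ (plusQF_nondegenerate m F)
    (plusQF_nondegenerate m F₀) hd (plus_hv (by omega)) hfix r hr hσr (Psi m F) (Psi m F₀)
    (cls_compat hm) (clsHom_sc _ _)

theorem split_alg (hm : 4 ≤ m)
    (σ : F ≃+* F) (hfix : ∀ x, σ x = x ↔ x ∈ Set.range (algebraMap F₀ F))
    (hσQ : ∀ v : Fin m ⊕ Fin m → F, plusQF m F (fun i => σ (v i)) = σ (plusQF m F v))
    {r : ℕ} (hodd : Odd r ∨ (2 : F₀) = 0) (hσr : orderOf σ = r)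
    (d : MulAut (Cfsg.POmega F ⇑(plusQF m F))) (hd' : d ∈ IDp m F) :
    ∃ k ∈ Cfsg.Inn (Cfsg.POmega F ⇑(plusQF m F)),
      ∃ c, c * fl ⇑(plusQF m F) σ hσQ = fl ⇑(plusQF m F) σ hσQ * c ∧ d = k * c := by
  by_cases h2 : (2 : F₀) = 0
  · have h2F : (2 : F) = 0 := by
      have := congrArg (algebraMap F₀ F) h2
      rwa [map_ofNat, map_zero] at this
    have hd2 : d ∈ Cfsg.Inn _ := by
      rw [← inndiagOf_plus_char_two h2F (by omega : 3 ≤ m)]
      exact hd'
    exact ⟨d, hd2, 1, by simp, by simp⟩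
  · have hodd' : Odd r := hodd.resolve_right h2
    have h2F : (2 : F) ≠ 0 := two_ne_of_two_ne h2
    obtain ⟨ν₀, D₀, -, S₀⟩ := setup_plus (odd_card_of_two_ne h2) hm
    obtain ⟨ν, D, -, S⟩ := setup_plus (odd_card_of_two_ne h2F) hm
    rw [IDp, inndiagOf_plus_eq_ker] at hd'
    obtain ⟨g, -, rfl⟩ := hd'
    have hnsq : ¬ IsSquare (algebraMap F₀ F ν₀) :=
      Cfsg.Agent.Lib.Helper59.AutO.not_isSquare_of_odd (algebraMap F₀ F) h2F σ hfix r hodd'
        (by rw [← hσr]; exact pow_orderOf_eq_one σ) ν₀ S₀.nsq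
    exact split_of_setup (plus_compat (m := m) F) S₀ S hnsq σ hfix hσQ g

end alg

end Cfsg.Agent.Lib.Helper6.FA
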