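import Mathlib
import Cfsg.Agent.Lib.Helper6.FA.Core
import Cfsg.Agent.Lib.Helper59.GFF2
import Cfsg.Agent.Lib.Helper59.GFG1
import Cfsg.Agent.Lib.Helper49.LeviOmega

set_option autoImplicit false
set_option linter.unusedSectionVars false
set_option linter.unusedVariables false

/-!
# Plus type: the number of `Inn`-classes in the `Inndiag`-class of the standard involutory field
automorphism (odd characteristic)
-/

namespace Cfsg.Agent.Lib.Helper6.FA

open Matrix QuadraticMap Module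
open scoped MatrixGroups
open Cfsg.Agent.Lib.Helper6.OA Cfsg.Agent.Lib.Helper49 Cfsg.Agent.Lib.Helper18
open Cfsg.Agent.Lib.Helper59.OMinus (fl Th Th_apply map_Th_eq)
open Cfsg.Agent.Lib.Helper59.GF (exists_u_lam count_lemma)

theorem isSquare_pow_key {F : Type*} [Field F] [Fintype F] (lam : F) (m q₀ : ℕ)
    (hq : Odd q₀) (hl0 : lam ≠ 0) (hlam : IsSquare lam ↔ q₀ % 4 = 3) :
    IsSquare (lam ^ m) ↔ ¬ (Odd m ∧ q₀ % 4 = 1) := by
  classical
  rw [← quadraticChar_one_iff_isSquare (pow_ne_zero _ hl0), map_pow]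
  have hq4 : q₀ % 4 = 1 ∨ q₀ % 4 = 3 := by
    rcases hq with ⟨t, rfl⟩
    omega
  by_cases hls : IsSquare lam
  · rw [(quadraticChar_one_iff_isSquare hl0).2 hls, one_pow]
    have := hlam.1 hls
    constructor
    · rintro - ⟨-, h⟩
      omega
    · intro _
      rfl
  · rw [quadraticChar_neg_one_iff_not_isSquare.2 hls, neg_one_pow_eq_one_iff_even (by norm_num)]
    have h3 : q₀ % 4 ≠ 3 := fun h => hls (hlam.2 h)
    constructor
    · rintro h ⟨h', -⟩
      exact (Nat.not_even_iff_odd.2 h') h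
    · intro h
      by_contra h'
      exact h ⟨Nat.not_even_iff_odd.1 h', by omega⟩

section main

variable {F F₀ : Type*} [Field F] [Fintype F] [Field F₀] [Fintype F₀] [Algebra F₀ F] {m : ℕ}

theorem bc_iO (rk : finrank F₀ F = 2) {ν : Fˣ} {D : ↥(GO ⇑(plusQF m F))}
    (S : Setup (plusQF m F) m ν D) (h₀ : ↥(Cfsg.isometryGroup F₀ ⇑(plusQF m F₀))) :
    ∃ h : ↥(Cfsg.isometryGroup F ⇑(plusQF m F)),
      bcHom (plus_compat (m := m) F) (iO (plusQF m F₀) h₀) = iO (plusQF m F) h ∧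
      sgn ⇑(plusQF m F) ν h = 1 := by
  have h2₀ : (2 : F₀) ≠ 0 := by
    intro h
    apply S.h2
    have := congrArg (algebraMap F₀ F) h
    rw [map_ofNat, map_zero] at this
    exact this
  have hm : h₀ ∈ Subgroup.closure (reflSet (plusQF m F₀)) := by
    rw [closure_reflSet_eq_top _ h2₀ (plusQF_nondegenerate m F₀)]
    exact Subgroup.mem_top _
  induction hm using Subgroup.closure_induction with
  | mem x hx =>
    obtain ⟨v, hv, rfl⟩ := hx
    refine ⟨_, bcHom_iO_refl _ v, ?_⟩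
    obtain ⟨r, hr⟩ := isSquare_algebraMap rk h2₀ (plusQF m F₀ v)
    have hr0 : r ≠ 0 := by
      rintro rfl
      rw [mul_zero] at hr
      exact hv ((algebraMap F₀ F).injective (by rw [hr, map_zero]))
    exact (sgn_pair_refl_sq _ S.h2 S.nsq hr0 (by
      rw [plus_compat, hr, pow_two])).2
  | one => exact ⟨1, by simp, by simp⟩
  | mul x y _ _ hx hy =>
    obtain ⟨a, a1, a2⟩ := hx
    obtain ⟨b, b1, b2⟩ := hy
    exact ⟨a * b, by rw [map_mul, map_mul, a1, b1, map_mul], by rw [map_mul, a2, b2, one_mul]⟩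
  | inv x _ hx =>
    obtain ⟨a, a1, a2⟩ := hx
    exact ⟨a⁻¹, by rw [map_inv, map_inv, a1, map_inv], by rw [map_inv, a2, inv_one]⟩

/-- class-preserving similarities over `F₀` with square multiplier induce inner automorphisms of
`PΩ⁺(F)` -/
theorem inn_of_sq (hm : 4 ≤ m) (rk : finrank F₀ F = 2) {ν : Fˣ} {D : ↥(GO ⇑(plusQF m F))}
    (S : Setup (plusQF m F) m ν D)
    (hneg : negIso (plusQF m F) ∈ Cfsg.Omega F ⇑(plusQF m F))
    (g₀ : ↥(GO ⇑(plusQF m F₀))) (hP : Psi m F₀ g₀ = 1)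
    (t : F₀ˣ) (ht : mu _ (plus_hv (by omega)) g₀ = t * t) :
    cG ⇑(plusQF m F) (bcHom (plus_compat (m := m) F) g₀) ∈
      Cfsg.Inn (Cfsg.POmega F ⇑(plusQF m F)) := by
  obtain ⟨h₀, hh⟩ := exists_sc_mul_iO _ (plus_hv (by omega)) g₀ t ht
  obtain ⟨h, e1, e2⟩ := bc_iO rk S h₀
  have e3 : bcHom (plus_compat (m := m) F) g₀ =
      sc _ (Units.map (algebraMap F₀ F : F₀ →* F) t) * iO _ h := by
    rw [hh, map_mul, bcHom_sc, e1]
  have h1 : S.eps (bcHom (plus_compat (m := m) F) g₀) = 1 := by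
    rw [S.eps_eq_one_iff, ← preserves_plus_iff S, ← clsHom_eq_one_iff (plusQF_nondegenerate m F)
      isLagr_stdLagr]
    rw [← hP]
    exact cls_compat hm g₀
  rw [e3, map_mul, S.eps_sc, one_mul, S.eps_iO_eq_one_iff] at h1
  rw [e3, map_mul, cG_sc, one_mul, S.N0_iff hneg, S.mem_Omega_iff', S.sgn_eq_of_dh h1]
  exact ⟨e2, e2⟩

theorem exists_E0 (lam : F) (ν₀ : F₀ˣ) (hl : lam * lam = algebraMap F₀ F ν₀) :
    ∃ (E₀ : ↥(GO ⇑(plusQF m F₀))) (A : GL (Fin m) F) (l : Fˣ),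
      Psi m F₀ E₀ = 1 ∧ (∀ v, plusQF m F₀ (E₀.1.1 *ᵥ v) = ν₀ * plusQF m F₀ v) ∧
      bcHom (plus_compat (m := m) F) E₀ = sc (plusQF m F) l * iO (plusQF m F) (leviHom m F A) ∧
      A.1.det = lam ^ m := by
  have hl0 : lam ≠ 0 := by
    rintro rfl
    rw [mul_zero] at hl
    exact ν₀.ne_zero ((algebraMap F₀ F).injective (by rw [← hl, map_zero]))
  obtain ⟨E₀, hE, hEQ⟩ := exists_plusE (F := F₀) m ν₀
  have hmul1 : (lam • (1 : Matrix (Fin m) (Fin m) F)) * (lam⁻¹ • 1) = 1 := by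
    rw [Matrix.smul_mul, Matrix.one_mul, smul_smul, mul_inv_cancel₀ hl0, one_smul]
  have hmul2 : (lam⁻¹ • (1 : Matrix (Fin m) (Fin m) F)) * (lam • 1) = 1 := by
    rw [Matrix.smul_mul, Matrix.one_mul, smul_smul, inv_mul_cancel₀ hl0, one_smul]
  obtain ⟨A, hA⟩ : ∃ A : GL (Fin m) F, A.1 = lam • (1 : Matrix (Fin m) (Fin m) F) :=
    ⟨⟨lam • 1, lam⁻¹ • 1, hmul1, hmul2⟩, rfl⟩
  refine ⟨E₀, A, Units.mk0 lam hl0, ?_, hEQ, ?_, ?_⟩
  · rw [clsHom_eq_one_iff]
    apply preserves_of_map_eq (plusQF_nondegenerate m F₀) isLagr_stdLagr E₀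
    apply Submodule.eq_of_le_of_finrank_eq
    · rintro _ ⟨v, hv, rfl⟩
      rw [SetLike.mem_coe, mem_stdLagr] at hv
      rw [mem_stdLagr]
      intro i
      rw [Matrix.toLin'_apply, hE, plusE_mulVec_inr, hv i]
    · rw [← lin_coe]
      exact LinearEquiv.finrank_map_eq _ _
  · apply eq_of_coe_eq
    rw [bcHom_coe, hE, coe_mul', sc_coe, iO_coe]
    have h1 : Cfsg.Agent.Lib.Helper18.mat (leviHom m F A) =
        Matrix.fromBlocks (lam • 1) 0 0 (lam⁻¹ • 1) := by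
      show leviMat A.1 = _
      rw [hA, leviMat, Matrix.inv_eq_right_inv hmul1, Matrix.transpose_smul, Matrix.transpose_one]
    rw [h1, Units.val_mk0, Matrix.smul_mul, Matrix.one_mul, Matrix.fromBlocks_smul,
      Matrix.fromBlocks_map, smul_smul, smul_smul, hl, mul_inv_cancel₀ hl0, one_smul]
    congr 1
    · ext i j
      simp [Matrix.map_apply, Matrix.one_apply]
      split_ifs <;> simp
    · simp
    · simp
    · ext i j
      simp [Matrix.map_apply, Matrix.one_apply]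
  · rw [hA, Matrix.det_smul, Matrix.det_one, mul_one, Fintype.card_fin]

set_option maxHeartbeats 1600000 in
theorem count_fl (hm : 4 ≤ m) (rk : finrank F₀ F = 2) (hodd : Odd (Fintype.card F)) (q₀ : ℕ)
    (hq₀ : Fintype.card F₀ = q₀) (σ : F ≃+* F)
    (hfix : ∀ x, σ x = x ↔ x ∈ Set.range (algebraMap F₀ F))
    (hσQ : ∀ v : Fin m ⊕ Fin m → F, plusQF m F (fun i => σ (v i)) = σ (plusQF m F v))
    (hσ2 : orderOf σ = 2) (hσq : ∀ x, σ x = x ^ q₀) :
    ((Odd m ∧ q₀ % 4 = 1) → Cfsg.splitClassCount (IDp m F)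
      (Cfsg.Inn (Cfsg.POmega F ⇑(plusQF m F))) (fl ⇑(plusQF m F) σ hσQ) = 2) ∧
    (¬ (Odd m ∧ q₀ % 4 = 1) → Cfsg.splitClassCount (IDp m F)
      (Cfsg.Inn (Cfsg.POmega F ⇑(plusQF m F))) (fl ⇑(plusQF m F) σ hσQ) = 4) := by
  obtain ⟨ν, D, -, S⟩ := setup_plus hodd hm
  have hd : 7 ≤ Fintype.card (Fin m ⊕ Fin m) := by rw [card_idx]; omega
  have hq : Fintype.card F = q₀ ^ 2 := by
    rw [Module.card_eq_pow_finrank (K := F₀) (V := F), rk, hq₀]
  have hq₀odd : Odd q₀ := by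
    rw [hq] at hodd
    exact Nat.Odd.of_mul_left (by rwa [pow_two] at hodd)
  have hneg : negIso (plusQF m F) ∈ Cfsg.Omega F ⇑(plusQF m F) := by
    rw [neg_mem_plus_iff hodd hm]
    rintro ⟨-, h⟩
    rw [hq] at h
    rcases hq₀odd with ⟨t, rfl⟩
    have : (2 * t + 1) ^ 2 = 4 * (t * t + t) + 1 := by ring
    omega
  have h2₀ : (2 : F₀) ≠ 0 := by
    intro h
    apply S.h2
    have := congrArg (algebraMap F₀ F) h
    rw [map_ofNat, map_zero] at this
    exact this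
  obtain ⟨u, lam, ν₀, hu, hl, hν₀, hunsq, hlam⟩ :=
    exists_u_lam q₀ hq₀ hq hq₀odd σ hσq (algebraMap F₀ F) hfix
  have hν₀0 : ν₀ ≠ 0 := by
    rintro rfl
    exact hν₀ IsSquare.zero
  have hl0 : lam ≠ 0 := by
    rintro rfl
    rw [mul_zero] at hl
    exact hν₀0 ((algebraMap F₀ F).injective (by rw [← hl, map_zero]))
  obtain ⟨E₀, A, l, hΨE, hmulE, hE, hdet⟩ := exists_E0 (m := m) lam (Units.mk0 ν₀ hν₀0) hl
  have hcent := map_Th_eq (plus_compat (m := m) F) σ hσQ (plusQF_nondegenerate m F) hd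
    (plus_hv (by omega)) hfix 2 (by norm_num) hσ2 (Psi m F) (Psi m F₀) (cls_compat hm)
    (clsHom_sc _ _)
  rw [← inndiagOf_plus_eq_ker, inndiagOf_plus S] at hcent
  have key : cG ⇑(plusQF m F) (bcHom (plus_compat (m := m) F) E₀) ∈
      Cfsg.Inn (Cfsg.POmega F ⇑(plusQF m F)) ↔ ¬ (Odd m ∧ q₀ % 4 = 1) := by
    rw [hE, map_mul, cG_sc, one_mul, S.N0_iff hneg, leviHom_mem_Omega_iff (Or.inr (by omega)),
      hdet, isSquare_pow_key lam m q₀ hq₀odd hl0 hlam]
  rw [IDp, inndiagOf_plus S]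
  have hE₀mem : cG ⇑(plusQF m F) (bcHom (plus_compat (m := m) F) E₀) ∈ S.ID ⊓
      Subgroup.centralizer {fl ⇑(plusQF m F) σ hσQ} := by
    rw [← hcent]
    exact ⟨E₀, hΨE, rfl⟩
  have hmuE₀ : mu _ (plus_hv (by omega)) E₀ = Units.mk0 ν₀ hν₀0 :=
    Units.ext (mu_unique _ (plus_hv (by omega)) E₀ _ hmulE)
  have hcl := count_lemma S.ID (Cfsg.Inn (Cfsg.POmega F ⇑(plusQF m F)))
    (S.muBar.ker.map (cG ⇑(plusQF m F))) S.Inn_le_ID
    (fl ⇑(plusQF m F) σ hσQ) (S.relIndex_Inn_ID hneg) ?_ ?_ ?_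
  · refine ⟨fun hc => hcl.2 (fun hle => (key.1 (hle hE₀mem)) hc), fun hc => hcl.1 ?_⟩
    rw [← hcent]
    rintro _ ⟨g₀, hg₀, rfl⟩
    have hg₀' : Psi m F₀ g₀ = 1 := hg₀
    show cG ⇑(plusQF m F) (bcHom (plus_compat (m := m) F) g₀) ∈ _
    rcases sq_or_nonsq h2₀ hν₀ (mu _ (plus_hv (by omega)) g₀).ne_zero with ⟨t, ht⟩ | ⟨t, ht⟩
    · have ht0 : t ≠ 0 := by
        rintro rfl
        exact (mu _ (plus_hv (by omega)) g₀).ne_zero (by rw [ht]; simp)
      exact inn_of_sq hm rk S hneg g₀ hg₀' (Units.mk0 t ht0)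
        (Units.ext (by rw [ht, Units.val_mul, Units.val_mk0, pow_two]))
    · have ht0 : t ≠ 0 := by
        rintro rfl
        exact (mu _ (plus_hv (by omega)) g₀).ne_zero (by rw [ht]; simp)
      have h1 : cG ⇑(plusQF m F) (bcHom (plus_compat (m := m) F) (g₀ * E₀⁻¹)) ∈
          Cfsg.Inn (Cfsg.POmega F ⇑(plusQF m F)) := by
        apply inn_of_sq hm rk S hneg (g₀ * E₀⁻¹) _ (Units.mk0 t ht0)
        · rw [map_mul, map_inv, hmuE₀]
          apply Units.ext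
          rw [Units.val_mul, ht, Units.val_mul, Units.val_mk0, Units.val_inv_eq_inv_val,
            Units.val_mk0]
          field_simp
        · rw [map_mul, map_inv, hg₀', hΨE]
          simp
      have h2 : bcHom (plus_compat (m := m) F) g₀ =
          bcHom (plus_compat (m := m) F) (g₀ * E₀⁻¹) * bcHom (plus_compat (m := m) F) E₀ := by
        rw [← map_mul, inv_mul_cancel_right]
      rw [h2, map_mul]
      exact mul_mem h1 (key.2 hc)
  · rw [Inn_eq]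
    apply Subgroup.map_mono
    intro b hb
    obtain ⟨h, rfl, -⟩ := (mem_OmE' b).1 hb
    exact S.muBar_iO h
  · rw [← hcent]
    rintro _ ⟨g₀, -, rfl⟩
    refine ⟨bcHom (plus_compat (m := m) F) g₀, ?_, rfl⟩
    show S.muBar (bcHom (plus_compat (m := m) F) g₀) = 1
    have hmu : mu _ S.hv (bcHom (plus_compat (m := m) F) g₀) =
        Units.map (algebraMap F₀ F : F₀ →* F) (mu _ (plus_hv (by omega)) g₀) :=
      mu_bc (plus_compat (m := m) F) (plus_hv (by omega)) S.hv g₀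
    rw [S.muBar_eq_one_iff, hmu]
    obtain ⟨r, hr⟩ := isSquare_algebraMap rk h2₀ ((mu _ (plus_hv (by omega)) g₀ : F₀ˣ) : F₀)
    have hr0 : r ≠ 0 := by
      rintro rfl
      rw [mul_zero] at hr
      exact (mu _ (plus_hv (by omega)) g₀).ne_zero
        ((algebraMap F₀ F).injective (by rw [hr, map_zero]))
    exact ⟨Units.mk0 r hr0, Units.ext hr⟩
  · obtain ⟨g, hg⟩ := S.prod_surjective (-1, 1)
    have hg1 : S.muBar g = -1 := congrArg Prod.fst hg
    have hg2 : S.eps g = 1 := congrArg Prod.snd hg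
    refine ⟨cG _ g, (S.cG_mem_ID_iff g).2 hg2, ?_⟩
    rintro ⟨b, hb, e⟩
    obtain ⟨l', rfl⟩ := (S.cG_eq_iff' _ _).1 e
    have hb' : S.muBar (sc _ l' * g) = 1 := hb
    rw [map_mul, S.muBar_sc, one_mul, hg1] at hb'
    exact absurd hb' (by decide)

end main

end Cfsg.Agent.Lib.Helper6.FA
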