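import Mathlib
import Cfsg.Agent.Lib.Helper6.FA.Count
import Cfsg.Agent.Lib.Helper59.GFF1
import Cfsg.Agent.Lib.Helper66.OGrpE

set_option autoImplicit false
set_option linter.unusedSectionVars false
set_option linter.unusedVariables false

/-!
# Plus type: field automorphisms of prime order (assembly, for conjugates under `PΓO`)
-/

namespace Cfsg.Agent.Lib.Helper6.FA

open Matrix QuadraticMap Module
open scoped MatrixGroups
open Cfsg.Agent.Lib.Helper6.OA Cfsg.Agent.Lib.Helper49 Cfsg.Agent.Lib.Helper18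
open Cfsg.Agent.Lib.Helper59.OMinus (fl eq_fl_of_isField orderOf_fl splitClassCount_eq_one
  cent_congr)
open Cfsg.Agent.Lib.Helper59.GF (sigma_eq_pow)
open Cfsg.Agent.Lib.Helper66.OGrp (DD DD_normal inndiag_eq)

section Generic

variable {X : Type*} [Group X]

theorem isConjUnder_conj' (D : Subgroup X) (α : X) (hD : ∀ d, d ∈ D ↔ α * d * α⁻¹ ∈ D) (x y : X) :
    Cfsg.IsConjUnder D (α * x * α⁻¹) (α * y * α⁻¹) ↔ Cfsg.IsConjUnder D x y := by
  constructor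
  · rintro ⟨h, hh, e⟩
    refine ⟨α⁻¹ * h * α, (hD _).2 (by
      have : α * (α⁻¹ * h * α) * α⁻¹ = h := by group
      rw [this]; exact hh), ?_⟩
    have : y = α⁻¹ * (α * y * α⁻¹) * α := by group
    rw [this, e]
    group
  · rintro ⟨h, hh, rfl⟩
    exact ⟨α * h * α⁻¹, (hD h).1 hh, by group⟩

theorem splitClassCount_conj' (D K : Subgroup X) (α : X) (hD : ∀ d, d ∈ D ↔ α * d * α⁻¹ ∈ D)
    (hK : ∀ d, d ∈ K ↔ α * d * α⁻¹ ∈ K) (x : X) :
    Cfsg.splitClassCount D K (α * x * α⁻¹) = Cfsg.splitClassCount D K x := by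
  unfold Cfsg.splitClassCount
  symm
  apply Nat.card_congr
  let e : {y : X // Cfsg.IsConjUnder D x y} ≃ {y : X // Cfsg.IsConjUnder D (α * x * α⁻¹) y} :=
    { toFun := fun y => ⟨α * y.1 * α⁻¹, (isConjUnder_conj' D α hD x y.1).2 y.2⟩
      invFun := fun y => ⟨α⁻¹ * y.1 * α, (isConjUnder_conj' D α hD x _).1 (by
          have : α * (α⁻¹ * y.1 * α) * α⁻¹ = y.1 := by group
          rw [this]
          exact y.2)⟩
      left_inv := fun y => Subtype.ext (by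
        show α⁻¹ * (α * y.1 * α⁻¹) * α = y.1
        group)
      right_inv := fun y => Subtype.ext (by
        show α * (α⁻¹ * y.1 * α) * α⁻¹ = y.1
        group) }
  exact Quot.congr e (fun a b => (isConjUnder_conj' K α hK a.1 b.1).symm)

end Generic

set_option maxHeartbeats 1600000 in
theorem core {F : Type*} [Field F] [Fintype F] {p f : ℕ} [Fact p.Prime]
    (hF : Fintype.card F = p ^ f) {m : ℕ} (hm : 4 ≤ m)
    (σ : F ≃+* F) (φ : MulAut (Cfsg.POmega F ⇑(plusQF m F)))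
    (hφ : Cfsg.IsFieldAutPOmegaOf ⇑(plusQF m F) σ φ) {r : ℕ} (hr : r.Prime)
    (hφr : orderOf φ = r) (F₀ : Type*) [Field F₀] [Fintype F₀]
    (hF₀ : Fintype.card F₀ = p ^ (f / r)) :
    r ∣ f ∧ Nonempty (↥(IDp m F ⊓ Subgroup.centralizer {φ}) ≃* ↥(IDp m F₀)) ∧
      ((Odd r ∨ p = 2) → Cfsg.splitClassCount (IDp m F)
        (Cfsg.Inn (Cfsg.POmega F ⇑(plusQF m F))) φ = 1) ∧
      ((r = 2 ∧ p ≠ 2 ∧ Odd m ∧ p ^ (f / 2) % 4 = 1) → Cfsg.splitClassCount (IDp m F)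
        (Cfsg.Inn (Cfsg.POmega F ⇑(plusQF m F))) φ = 2) ∧
      ((r = 2 ∧ p ≠ 2 ∧ ¬ (Odd m ∧ p ^ (f / 2) % 4 = 1)) → Cfsg.splitClassCount (IDp m F)
        (Cfsg.Inn (Cfsg.POmega F ⇑(plusQF m F))) φ = 4) := by
  classical
  have hσQ := plus_sigma (m := m) σ
  have hd : 7 ≤ Fintype.card (Fin m ⊕ Fin m) := by rw [card_idx]; omega
  have e : φ = fl ⇑(plusQF m F) σ hσQ := eq_fl_of_isField _ hσQ hφ
  have hσr : orderOf σ = r := by
    rw [← orderOf_fl (plusQF m F) σ hσQ (plusQF_nondegenerate m F) hd, ← e, hφr]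
  obtain ⟨hdvd, hemb⟩ := Cfsg.Agent.Lib.Helper18.AutPSL.exists_subfield_emb hF σ hσr hr.pos
  obtain ⟨j, hj⟩ := hemb F₀ hF₀
  obtain ⟨A, hA⟩ : ∃ A : Algebra F₀ F, @algebraMap F₀ F _ _ A = j := ⟨j.toAlgebra, rfl⟩
  have hfix : ∀ x, σ x = x ↔ x ∈ Set.range (algebraMap F₀ F) := by rw [hA]; exact hj
  have hf0 : f ≠ 0 := by
    rintro rfl
    rw [pow_zero] at hF
    have := Fintype.one_lt_card (α := F)
    omega
  have hrk : ∀ h2 : r = 2, finrank F₀ F = 2 := by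
    intro h2
    subst h2
    have h1 := Module.card_eq_pow_finrank (K := F₀) (V := F)
    rw [hF, hF₀, ← pow_mul] at h1
    have h3 := Nat.pow_right_injective (Fact.out : p.Prime).two_le h1
    obtain ⟨t, rfl⟩ := hdvd
    rw [Nat.mul_div_cancel_left t (by norm_num)] at h3
    have ht : 0 < t := by omega
    have : t * 2 = t * finrank F₀ F := by rw [mul_comm]; exact h3
    exact (Nat.eq_of_mul_eq_mul_left ht this).symm
  have hoddF : p ≠ 2 → Odd (Fintype.card F) := by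
    intro hp
    rw [hF]
    exact ((Fact.out : p.Prime).odd_of_ne_two hp).pow
  refine ⟨hdvd, ?_, ?_, ?_, ?_⟩
  · rw [e]
    exact cent_alg hm σ hfix hσQ hr.pos hσr
  · intro h
    rw [e]
    apply splitClassCount_eq_one
    intro d hd'
    refine split_alg hm σ hfix hσQ (h.imp id ?_) hσr d hd'
    intro hp
    have : CharP F₀ p := charP_of_card_eq_prime_pow hF₀
    rw [hp] at this
    exact CharTwo.two_eq_zero
  · rintro ⟨rfl, hp, hc⟩
    rw [e]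
    exact (count_fl hm (hrk rfl) (hoddF hp) _ hF₀ σ hfix hσQ hσr (sigma_eq_pow hF σ hσr).2).1 hc
  · rintro ⟨rfl, hp, hc⟩
    rw [e]
    exact (count_fl hm (hrk rfl) (hoddF hp) _ hF₀ σ hfix hσQ hσr (sigma_eq_pow hF σ hσr).2).2 hc

theorem ID_conj {F : Type*} [Field F] {m : ℕ} (B : ↥(GamO ⇑(plusQF m F)))
    (d : MulAut (Cfsg.POmega F ⇑(plusQF m F))) :
    d ∈ IDp m F ↔ cGam ⇑(plusQF m F) B * d * (cGam ⇑(plusQF m F) B)⁻¹ ∈ IDp m F := by
  have hQ : (polarBilin (plusQF m F)).Nondegenerate := plusQF_nondegenerate m F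
  have hL : IsLagr (plusQF m F) (stdLagr m F) := isLagr_stdLagr
  have hID : IDp m F = (DD (plusQF m F) hQ hL).map (cGam ⇑(plusQF m F)) := inndiag_eq _ hQ hL
  have hN := DD_normal (plusQF m F) hQ hL
  have key : ∀ (B : ↥(GamO ⇑(plusQF m F))) (d : MulAut (Cfsg.POmega F ⇑(plusQF m F))),
      d ∈ IDp m F → cGam ⇑(plusQF m F) B * d * (cGam ⇑(plusQF m F) B)⁻¹ ∈ IDp m F := by
    intro B d hd
    rw [hID] at hd ⊢
    obtain ⟨γ, hγ, rfl⟩ := hd
    exact ⟨B * γ * B⁻¹, hN.conj_mem γ hγ B, by rw [map_mul, map_mul, map_inv]⟩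
  refine ⟨key B d, fun h => ?_⟩
  have := key B⁻¹ _ h
  rw [map_inv] at this
  have e : (cGam ⇑(plusQF m F) B)⁻¹ * (cGam ⇑(plusQF m F) B * d * (cGam ⇑(plusQF m F) B)⁻¹) *
      (cGam ⇑(plusQF m F) B)⁻¹⁻¹ = d := by group
  rwa [e] at this

set_option maxHeartbeats 1600000 in
theorem main {F : Type*} [Field F] [Fintype F] {p f : ℕ} [Fact p.Prime]
    (hF : Fintype.card F = p ^ f) {m : ℕ} (hm : 4 ≤ m)
    (x β φ : MulAut (Cfsg.POmega F ⇑(plusQF m F))) (σ : F ≃+* F)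
    (hβ : β ∈ Cfsg.gammaPOmega F ⇑(plusQF m F))
    (hφ : Cfsg.IsFieldAutPOmegaOf ⇑(plusQF m F) σ φ) (hx : x = β * φ * β⁻¹)
    {r : ℕ} (hr : r.Prime) (hxr : orderOf x = r) (F₀ : Type*) [Field F₀] [Fintype F₀]
    (hF₀ : Fintype.card F₀ = p ^ (f / r)) :
    r ∣ f ∧ Nonempty (↥(IDp m F ⊓ Subgroup.centralizer {x}) ≃* ↥(IDp m F₀)) ∧
      ((Odd r ∨ p = 2) → Cfsg.splitClassCount (IDp m F)
        (Cfsg.Inn (Cfsg.POmega F ⇑(plusQF m F))) x = 1) ∧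
      ((r = 2 ∧ p ≠ 2 ∧ Odd m ∧ p ^ (f / 2) % 4 = 1) → Cfsg.splitClassCount (IDp m F)
        (Cfsg.Inn (Cfsg.POmega F ⇑(plusQF m F))) x = 2) ∧
      ((r = 2 ∧ p ≠ 2 ∧ ¬ (Odd m ∧ p ^ (f / 2) % 4 = 1)) → Cfsg.splitClassCount (IDp m F)
        (Cfsg.Inn (Cfsg.POmega F ⇑(plusQF m F))) x = 4) := by
  rw [gammaPOmega_eq_range] at hβ
  obtain ⟨B, rfl⟩ := hβ
  have hφr : orderOf φ = r := by
    rw [← hxr, hx]
    have := (MulAut.conj (cGam ⇑(plusQF m F) B)).orderOf_eq φ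
    rw [MulAut.conj_apply] at this
    exact this.symm
  obtain ⟨h1, ⟨E⟩, h3, h4, h5⟩ := core hF hm σ φ hφ hr hφr F₀ hF₀
  have hD := ID_conj B
  have hK : ∀ d, d ∈ Cfsg.Inn (Cfsg.POmega F ⇑(plusQF m F)) ↔
      cGam ⇑(plusQF m F) B * d * (cGam ⇑(plusQF m F) B)⁻¹ ∈
        Cfsg.Inn (Cfsg.POmega F ⇑(plusQF m F)) := by
    intro d
    have hN : (Cfsg.Inn (Cfsg.POmega F ⇑(plusQF m F))).Normal := inferInstance
    refine ⟨fun h => hN.conj_mem d h _, fun h => ?_⟩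
    have := hN.conj_mem _ h (cGam ⇑(plusQF m F) B)⁻¹
    have e : (cGam ⇑(plusQF m F) B)⁻¹ * (cGam ⇑(plusQF m F) B * d * (cGam ⇑(plusQF m F) B)⁻¹) *
        (cGam ⇑(plusQF m F) B)⁻¹⁻¹ = d := by group
    rwa [e] at this
  have hcount := splitClassCount_conj' (IDp m F) (Cfsg.Inn (Cfsg.POmega F ⇑(plusQF m F)))
    (cGam ⇑(plusQF m F) B) hD hK φ
  rw [← hx] at hcount
  rw [hcount]
  refine ⟨h1, ?_, h3, h4, h5⟩
  obtain ⟨E1⟩ := cent_congr (MulAut.conj (cGam ⇑(plusQF m F) B)) (IDp m F) (IDp m F)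
    (fun d => by rw [MulAut.conj_apply]; exact hD d) φ
  rw [MulAut.conj_apply, ← hx] at E1
  exact ⟨E1.symm.trans E⟩

end Cfsg.Agent.Lib.Helper6.FA
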