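import Mathlib
import Cfsg.Agent.Lib.Helper6.FA.Iso
import Cfsg.Agent.Lib.Helper23.AutOut3
import Cfsg.Agent.Lib.Helper49.FAFLD
import Cfsg.Agent.Lib.Helper49.FACOMM
import Cfsg.Agent.Lib.Helper49.FADIAG
import Cfsg.Agent.Lib.Helper49.FAINN

set_option autoImplicit false

/-!
# `PΩ₈⁺`: a conjugate of a standard field automorphism under the full automorphism group is a
conjugate under `PΓO₈⁺` (Steinberg's theorem for `D₄`: the graph and field parts commute with the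
standard field automorphism)
-/

namespace Cfsg.Agent.Lib.Helper6.FA
open Matrix Cfsg.Lie Cfsg.Agent.Lib.Helper6.D4
open Cfsg.Agent.Lib.Helper49.FA (fld comm diag inn_le)

variable {F : Type*} [Field F]

theorem conj_red {A B : Type*} [Group A] [Group B] (C : A ≃* B) (α φ : B) (a γ : A)
    (h1 : C.symm α⁻¹ = a * γ) (h2 : γ * C.symm φ = C.symm φ * γ) :
    α⁻¹ * φ * α = C a * φ * (C a)⁻¹ := by
  apply C.symm.injective
  have h3 : C.symm α = (a * γ)⁻¹ := by rw [← h1, map_inv, inv_inv]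
  rw [map_mul, map_mul, map_mul, map_mul, h1, h3, map_inv, C.symm_apply_apply]
  calc a * γ * C.symm φ * (a * γ)⁻¹ = a * (γ * C.symm φ) * γ⁻¹ * a⁻¹ := by group
    _ = a * (C.symm φ * γ) * γ⁻¹ * a⁻¹ := by rw [h2]
    _ = a * C.symm φ * a⁻¹ := by group

/-- ASM -/
theorem reduce4 [Finite F] (α φ : MulAut (Cfsg.POmega F (Cfsg.quadFormPlus 4 F))) (σ : F ≃+* F)
    (hφ : Cfsg.IsFieldAutPOmegaOf (Cfsg.quadFormPlus 4 F) σ φ) :
    ∃ β ∈ Cfsg.gammaPOmega F (Cfsg.quadFormPlus 4 F), α⁻¹ * φ * α = β * φ * β⁻¹ := by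
  obtain ⟨e, he⟩ := exists_iso' F
  obtain ⟨C, hC⟩ : ∃ C : MulAut ↥(chevD4.group F) ≃* MulAut (Cfsg.POmega F (Cfsg.quadFormPlus 4 F)),
      C = MulAut.congr e := ⟨_, rfl⟩
  have hCs : ∀ (ψ : MulAut (Cfsg.POmega F (Cfsg.quadFormPlus 4 F))) (y : ↥(chevD4.group F)),
      (C.symm ψ) y = e.symm (ψ (e y)) := by
    intro ψ y
    rw [hC]
    rfl
  obtain ⟨x, d, g, f, hd, hg, hf, hθ⟩ := Cfsg.Agent.Lib.Helper23.steinberg_all (F := F) (D := chevD4) (by simp) (C.symm α⁻¹)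
  have hφ' : ∀ r t, (C.symm φ) (xE r t) = xE r (σ t) := by
    intro r t
    rw [hCs, he, fld σ φ hφ, ← he, e.symm_apply_apply]
  have hcomm := comm (C.symm φ) g f σ hφ' hg hf
  obtain ⟨a, ha⟩ : ∃ a : MulAut ↥(chevD4.group F), a = MulAut.conj x * d := ⟨_, rfl⟩
  obtain ⟨γ, hγ⟩ : ∃ γ : MulAut ↥(chevD4.group F), γ = (g : MulAut ↥(chevD4.group F)) * f :=
    ⟨_, rfl⟩
  have h1 : C.symm α⁻¹ = a * γ := by
    apply MulEquiv.ext
    intro y
    rw [hθ y, ha, hγ]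
    rfl
  have h2 : γ * C.symm φ = C.symm φ * γ := by
    apply MulEquiv.ext
    intro y
    rw [hγ]
    exact hcomm y
  refine ⟨C a, ?_, ?_⟩
  · rw [ha, map_mul]
    refine mul_mem ?_ (by rw [hC]; exact diag e he d hd)
    have : C (MulAut.conj x) = MulAut.conj (e x) := by
      apply MulEquiv.ext
      intro z
      rw [hC]
      show e (x * e.symm z * x⁻¹) = e x * z * (e x)⁻¹
      rw [map_mul, map_mul, map_inv, e.apply_symm_apply]
    rw [this]
    exact inn_le _ _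
  · exact conj_red C α φ a γ h1 h2

end Cfsg.Agent.Lib.Helper6.FA
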